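import Mathlib
import Cfsg.Agent.TcData.HN.A12.Chk
import Cfsg.Agent.TcData.HN.Fin
import Cfsg.Agent.Lib.Pres.Carmichael
import Cfsg.Agent.Lib.TcCosetAct
import Cfsg.Prelude.Def_Sporadic

/-!
# The action of the Harada–Norton group on the cosets of a subgroup `A₁₂`

Ten elements of the presented group satisfy Carmichael's relations, so they generate a homomorphic image of
`A₁₂`, which is simple: this image has index `1140000`.
-/

set_option autoImplicit false
set_option Elab.async false
set_option maxRecDepth 100000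
set_option linter.all false

namespace Cfsg.Agent.TcData.HN.A12Fin

open Cfsg Cfsg.Spor Cfsg.Agent.Lib.TcFacts Cfsg.Agent.Lib.TcBits Cfsg.Agent.Lib.TcPres Cfsg.Agent.Lib.TcRel
  Cfsg.Agent.Lib.TcChain Cfsg.Agent.Lib.TcAbs Cfsg.Agent.Lib.TcLevels Cfsg.Spor.HN Cfsg.Agent.TcData.HN
  Cfsg.Agent.TcData.HN.I1539000

theorem mk_one_of_chk {r : FreeGroup Gen} (h : ∀ j, j < 21 → chkW r j = true) :
    PresentedGroup.mk RR r = 1 := by
  apply Cfsg.Agent.TcData.HN.Fin.hInjPhi
  rw [map_one, Phi, repOf_mk hR hv, ← lift_eq_wordPerm hv]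
  exact lift_eq_one_of_slices hv (of_chkW h)

/-- The elements. -/
noncomputable def gX (i : _root_.Fin 10) : PresentedGroup RR := PresentedGroup.mk RR (XX i)

theorem isCar : Cfsg.Agent.Lib.Pres.Carmichael.IsCar gX where
  cube i := by
    have := mk_one_of_chk (chkC i i.2)
    rwa [relC, map_pow] at this
  pair i j hij := by
    rcases lt_or_gt_of_ne (_root_.Fin.val_ne_of_ne hij) with h | h
    · have := mk_one_of_chk (chkA i j h j.2)
      rwa [relA, map_pow, map_mul] at this
    · have := mk_one_of_chk (chkA j i h i.2)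
      rw [relA, map_pow, map_mul] at this
      show (gX i * gX j) ^ 2 = 1
      have h2 : (gX j * gX i) ^ 2 = 1 := this
      have e : (gX i * gX j) ^ 2 = gX i * (gX j * gX i) ^ 2 * (gX i)⁻¹ := by
        simp only [pow_two, mul_assoc, mul_inv_cancel, mul_one]
      rw [e, h2]
      simp

theorem hX0 : gX 0 ≠ 1 :=
  mk_ne_one_of_apply hR hv (k := 21) (X := slice 21 0) (by decide +kernel)

theorem main : ∃ H : Subgroup (Equiv.Perm (_root_.Fin 1140000)), Cfsg.IsHN H ∧
    MulAction.IsPretransitive H (_root_.Fin 1140000) ∧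
    Nonempty (MulAction.stabilizer H (0 : _root_.Fin 1140000) ≃* alternatingGroup (_root_.Fin 12)) := by
  classical
  obtain ⟨θ, hθ⟩ := Cfsg.Agent.Lib.Pres.Carmichael.exists_theta gX isCar
  haveI hsA : IsSimpleGroup (alternatingGroup (_root_.Fin 10 ⊕ Bool)) :=
    alternatingGroup.isSimpleGroup (by simp)
  haveI hGs : IsSimpleGroup (PresentedGroup RR) := Cfsg.Agent.TcData.HN.Fin.final.1
  have hinj : Function.Injective θ := by
    rw [injective_iff_map_eq_one]
    intro g hg
    have hker : θ.ker = ⊥ ∨ θ.ker = ⊤ := IsSimpleGroup.eq_bot_or_eq_top_of_normal _ θ.normal_ker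
    rcases hker with h | h
    · exact Subgroup.mem_bot.mp (h ▸ (MonoidHom.mem_ker.mpr hg))
    · exfalso
      have h1 : Cfsg.Agent.Lib.Pres.Carmichael.cycA (0 : _root_.Fin 10) ∈ θ.ker := by rw [h]; trivial
      rw [MonoidHom.mem_ker, hθ] at h1
      exact hX0 h1
  let E : alternatingGroup (_root_.Fin 10 ⊕ Bool) ≃* θ.range := MonoidHom.ofInjective hinj
  haveI hnt : Nontrivial (_root_.Fin 10 ⊕ Bool) := ⟨⟨Sum.inr true, Sum.inr false, by simp⟩⟩
  have hcardA : Nat.card (alternatingGroup (_root_.Fin 10 ⊕ Bool)) = 239500800 := by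
    rw [nat_card_alternatingGroup]
    simp [Nat.factorial]
  have hidx : θ.range.index = 1140000 := by
    have h1 := Subgroup.card_mul_index θ.range
    rw [← Nat.card_congr E.toEquiv, hcardA, Cfsg.Agent.TcData.HN.Fin.card] at h1
    omega
  let e12 : (_root_.Fin 10 ⊕ Bool) ≃ _root_.Fin 12 := Fintype.equivFinOfCardEq (by simp)
  let eT : alternatingGroup (_root_.Fin 12) ≃* θ.range := (e12.altCongrHom).symm.trans E
  obtain ⟨H, ⟨eH⟩, htr, hst⟩ := Cfsg.Agent.Lib.TcCosetAct.exists_perm_group θ.range (N := 1140000)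
    (by norm_num) hidx eT
  refine ⟨H, ⟨eH.isSimpleGroup, ?_⟩, htr, hst⟩
  rw [Nat.card_congr eH.toEquiv]
  exact Cfsg.Agent.TcData.HN.Fin.card

end Cfsg.Agent.TcData.HN.A12Fin
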