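import Mathlib
import Cfsg.Agent.TcData.HN.I1539000.Rep0

set_option autoImplicit false
set_option Elab.async false
set_option maxRecDepth 100000
set_option linter.all false

namespace Cfsg.Agent.TcData.HN.I1539000

open Cfsg.Spor Cfsg.Agent.Lib.TcFacts Cfsg.Agent.Lib.TcBits Cfsg.Agent.Lib.TcPres Cfsg.Spor.HN Cfsg.Agent.TcData.HN

/-- The words of the generators of a subgroup. -/
noncomputable def XW : List (FreeGroup Gen) := [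
  z * t⁻¹,
  t * t * x * x * t⁻¹ * z,
  t * z * t * z * t⁻¹ * x * x * t * z * t⁻¹,
  t * z * t⁻¹ * y⁻¹ * x⁻¹ * y⁻¹ * z * t⁻¹ * x * x * t * z * y * x * y * t,
  t * z * t⁻¹ * z * y * z * y⁻¹ * z * t * x * x * t⁻¹ * z * y * z * y⁻¹ * z * t,
  t * z * t⁻¹ * z * y⁻¹ * z * y * z * t * x * x * t⁻¹ * z * y⁻¹ * z * y * z * t,
  t * z * t⁻¹ * y * x⁻¹ * y⁻¹ * y⁻¹ * z * t⁻¹ * x * x * t * z * y * y * x * y⁻¹ * t,
  t * z * t⁻¹ * z * y * y * z * y⁻¹ * y⁻¹ * z * t * x * x * t⁻¹ * z * y * y * z * y⁻¹ * y⁻¹ * z * t,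
  t * z * t⁻¹ * y⁻¹ * x⁻¹ * y⁻¹ * x⁻¹ * y⁻¹ * y⁻¹ * y⁻¹ * z * x⁻¹ * t⁻¹ * x * x * t * x * z * y * y * y * x * y * x * y * t,
  t * z * t⁻¹ * y * x⁻¹ * y * x⁻¹ * y⁻¹ * y⁻¹ * y⁻¹ * z * x⁻¹ * t⁻¹ * x * x * t * x * z * y * y * y * x * y⁻¹ * x * y⁻¹ * t]

/-- A word. -/
noncomputable def XX (i : ℕ) : FreeGroup Gen := XW.getD i 1

/-- A relator. -/
noncomputable def relC (i : ℕ) : FreeGroup Gen := XX i ^ 3

/-- A relator. -/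
noncomputable def relA (i j : ℕ) : FreeGroup Gen := (XX i * XX j) ^ 2

end Cfsg.Agent.TcData.HN.I1539000
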