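import Mathlib
import Cfsg.Agent.TcData.HN.A12.Defs

set_option autoImplicit false
set_option Elab.async false
set_option maxRecDepth 100000
set_option linter.all false

namespace Cfsg.Agent.TcData.HN.I1539000

open Cfsg.Spor Cfsg.Agent.Lib.TcFacts Cfsg.Agent.Lib.TcBits Cfsg.Agent.Lib.TcPres Cfsg.Spor.HN Cfsg.Agent.TcData.HN

theorem hA0_1_0 : chkW (relA 0 1) 0 = true := by decide +kernel

theorem hA0_1_1 : chkW (relA 0 1) 1 = true := by decide +kernel

theorem hA0_1_2 : chkW (relA 0 1) 2 = true := by decide +kernel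

theorem hA0_1_3 : chkW (relA 0 1) 3 = true := by decide +kernel

theorem hA0_1_4 : chkW (relA 0 1) 4 = true := by decide +kernel

theorem hA0_1_5 : chkW (relA 0 1) 5 = true := by decide +kernel

theorem hA0_1_6 : chkW (relA 0 1) 6 = true := by decide +kernel

theorem hA0_1_7 : chkW (relA 0 1) 7 = true := by decide +kernel

theorem hA0_1_8 : chkW (relA 0 1) 8 = true := by decide +kernel

theorem hA0_1_9 : chkW (relA 0 1) 9 = true := by decide +kernel

theorem hA0_1_10 : chkW (relA 0 1) 10 = true := by decide +kernel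

theorem hA0_1_11 : chkW (relA 0 1) 11 = true := by decide +kernel

theorem hA0_1_12 : chkW (relA 0 1) 12 = true := by decide +kernel

theorem hA0_1_13 : chkW (relA 0 1) 13 = true := by decide +kernel

theorem hA0_1_14 : chkW (relA 0 1) 14 = true := by decide +kernel

theorem hA0_1_15 : chkW (relA 0 1) 15 = true := by decide +kernel

theorem hA0_1_16 : chkW (relA 0 1) 16 = true := by decide +kernel

theorem hA0_1_17 : chkW (relA 0 1) 17 = true := by decide +kernel

theorem hA0_1_18 : chkW (relA 0 1) 18 = true := by decide +kernel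

theorem hA0_1_19 : chkW (relA 0 1) 19 = true := by decide +kernel

theorem hA0_1_20 : chkW (relA 0 1) 20 = true := by decide +kernel

theorem hA0_1 : ∀ j, j < 21 → chkW (relA 0 1) j = true := by
  intro j hj
  interval_cases j
  exacts [hA0_1_0, hA0_1_1, hA0_1_2, hA0_1_3, hA0_1_4, hA0_1_5, hA0_1_6, hA0_1_7, hA0_1_8, hA0_1_9, hA0_1_10, hA0_1_11, hA0_1_12, hA0_1_13, hA0_1_14, hA0_1_15, hA0_1_16, hA0_1_17, hA0_1_18, hA0_1_19, hA0_1_20]

end Cfsg.Agent.TcData.HN.I1539000
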