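import Mathlib
import Cfsg.Agent.TcData.HN.A12.Defs

set_option autoImplicit false
set_option Elab.async false
set_option maxRecDepth 100000
set_option linter.all false

namespace Cfsg.Agent.TcData.HN.I1539000

open Cfsg.Spor Cfsg.Agent.Lib.TcFacts Cfsg.Agent.Lib.TcBits Cfsg.Agent.Lib.TcPres Cfsg.Spor.HN Cfsg.Agent.TcData.HN

theorem hA2_3_0 : chkW (relA 2 3) 0 = true := by decide +kernel

theorem hA2_3_1 : chkW (relA 2 3) 1 = true := by decide +kernel

theorem hA2_3_2 : chkW (relA 2 3) 2 = true := by decide +kernel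

theorem hA2_3_3 : chkW (relA 2 3) 3 = true := by decide +kernel

theorem hA2_3_4 : chkW (relA 2 3) 4 = true := by decide +kernel

theorem hA2_3_5 : chkW (relA 2 3) 5 = true := by decide +kernel

theorem hA2_3_6 : chkW (relA 2 3) 6 = true := by decide +kernel

theorem hA2_3_7 : chkW (relA 2 3) 7 = true := by decide +kernel

theorem hA2_3_8 : chkW (relA 2 3) 8 = true := by decide +kernel

theorem hA2_3_9 : chkW (relA 2 3) 9 = true := by decide +kernel

theorem hA2_3_10 : chkW (relA 2 3) 10 = true := by decide +kernel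

theorem hA2_3_11 : chkW (relA 2 3) 11 = true := by decide +kernel

theorem hA2_3_12 : chkW (relA 2 3) 12 = true := by decide +kernel

theorem hA2_3_13 : chkW (relA 2 3) 13 = true := by decide +kernel

theorem hA2_3_14 : chkW (relA 2 3) 14 = true := by decide +kernel

theorem hA2_3_15 : chkW (relA 2 3) 15 = true := by decide +kernel

theorem hA2_3_16 : chkW (relA 2 3) 16 = true := by decide +kernel

theorem hA2_3_17 : chkW (relA 2 3) 17 = true := by decide +kernel

theorem hA2_3_18 : chkW (relA 2 3) 18 = true := by decide +kernel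

theorem hA2_3_19 : chkW (relA 2 3) 19 = true := by decide +kernel

theorem hA2_3_20 : chkW (relA 2 3) 20 = true := by decide +kernel

theorem hA2_3 : ∀ j, j < 21 → chkW (relA 2 3) j = true := by
  intro j hj
  interval_cases j
  exacts [hA2_3_0, hA2_3_1, hA2_3_2, hA2_3_3, hA2_3_4, hA2_3_5, hA2_3_6, hA2_3_7, hA2_3_8, hA2_3_9, hA2_3_10, hA2_3_11, hA2_3_12, hA2_3_13, hA2_3_14, hA2_3_15, hA2_3_16, hA2_3_17, hA2_3_18, hA2_3_19, hA2_3_20]

end Cfsg.Agent.TcData.HN.I1539000
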