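import Mathlib
import Cfsg.Agent.TcData.HN.A12.Defs

set_option autoImplicit false
set_option Elab.async false
set_option maxRecDepth 100000
set_option linter.all false

namespace Cfsg.Agent.TcData.HN.I1539000

open Cfsg.Spor Cfsg.Agent.Lib.TcFacts Cfsg.Agent.Lib.TcBits Cfsg.Agent.Lib.TcPres Cfsg.Spor.HN Cfsg.Agent.TcData.HN

theorem hA2_7_0 : chkW (relA 2 7) 0 = true := by decide +kernel

theorem hA2_7_1 : chkW (relA 2 7) 1 = true := by decide +kernel

theorem hA2_7_2 : chkW (relA 2 7) 2 = true := by decide +kernel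

theorem hA2_7_3 : chkW (relA 2 7) 3 = true := by decide +kernel

theorem hA2_7_4 : chkW (relA 2 7) 4 = true := by decide +kernel

theorem hA2_7_5 : chkW (relA 2 7) 5 = true := by decide +kernel

theorem hA2_7_6 : chkW (relA 2 7) 6 = true := by decide +kernel

theorem hA2_7_7 : chkW (relA 2 7) 7 = true := by decide +kernel

theorem hA2_7_8 : chkW (relA 2 7) 8 = true := by decide +kernel

theorem hA2_7_9 : chkW (relA 2 7) 9 = true := by decide +kernel

theorem hA2_7_10 : chkW (relA 2 7) 10 = true := by decide +kernel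

theorem hA2_7_11 : chkW (relA 2 7) 11 = true := by decide +kernel

theorem hA2_7_12 : chkW (relA 2 7) 12 = true := by decide +kernel

theorem hA2_7_13 : chkW (relA 2 7) 13 = true := by decide +kernel

theorem hA2_7_14 : chkW (relA 2 7) 14 = true := by decide +kernel

theorem hA2_7_15 : chkW (relA 2 7) 15 = true := by decide +kernel

theorem hA2_7_16 : chkW (relA 2 7) 16 = true := by decide +kernel

theorem hA2_7_17 : chkW (relA 2 7) 17 = true := by decide +kernel

theorem hA2_7_18 : chkW (relA 2 7) 18 = true := by decide +kernel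

theorem hA2_7_19 : chkW (relA 2 7) 19 = true := by decide +kernel

theorem hA2_7_20 : chkW (relA 2 7) 20 = true := by decide +kernel

theorem hA2_7 : ∀ j, j < 21 → chkW (relA 2 7) j = true := by
  intro j hj
  interval_cases j
  exacts [hA2_7_0, hA2_7_1, hA2_7_2, hA2_7_3, hA2_7_4, hA2_7_5, hA2_7_6, hA2_7_7, hA2_7_8, hA2_7_9, hA2_7_10, hA2_7_11, hA2_7_12, hA2_7_13, hA2_7_14, hA2_7_15, hA2_7_16, hA2_7_17, hA2_7_18, hA2_7_19, hA2_7_20]

end Cfsg.Agent.TcData.HN.I1539000
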