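import Mathlib
import Cfsg.Agent.TcData.HN.A12.Defs

set_option autoImplicit false
set_option Elab.async false
set_option maxRecDepth 100000
set_option linter.all false

namespace Cfsg.Agent.TcData.HN.I1539000

open Cfsg.Spor Cfsg.Agent.Lib.TcFacts Cfsg.Agent.Lib.TcBits Cfsg.Agent.Lib.TcPres Cfsg.Spor.HN Cfsg.Agent.TcData.HN

theorem hA2_8_0 : chkW (relA 2 8) 0 = true := by decide +kernel

theorem hA2_8_1 : chkW (relA 2 8) 1 = true := by decide +kernel

theorem hA2_8_2 : chkW (relA 2 8) 2 = true := by decide +kernel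

theorem hA2_8_3 : chkW (relA 2 8) 3 = true := by decide +kernel

theorem hA2_8_4 : chkW (relA 2 8) 4 = true := by decide +kernel

theorem hA2_8_5 : chkW (relA 2 8) 5 = true := by decide +kernel

theorem hA2_8_6 : chkW (relA 2 8) 6 = true := by decide +kernel

theorem hA2_8_7 : chkW (relA 2 8) 7 = true := by decide +kernel

theorem hA2_8_8 : chkW (relA 2 8) 8 = true := by decide +kernel

theorem hA2_8_9 : chkW (relA 2 8) 9 = true := by decide +kernel

theorem hA2_8_10 : chkW (relA 2 8) 10 = true := by decide +kernel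

theorem hA2_8_11 : chkW (relA 2 8) 11 = true := by decide +kernel

theorem hA2_8_12 : chkW (relA 2 8) 12 = true := by decide +kernel

theorem hA2_8_13 : chkW (relA 2 8) 13 = true := by decide +kernel

theorem hA2_8_14 : chkW (relA 2 8) 14 = true := by decide +kernel

theorem hA2_8_15 : chkW (relA 2 8) 15 = true := by decide +kernel

theorem hA2_8_16 : chkW (relA 2 8) 16 = true := by decide +kernel

theorem hA2_8_17 : chkW (relA 2 8) 17 = true := by decide +kernel

theorem hA2_8_18 : chkW (relA 2 8) 18 = true := by decide +kernel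

theorem hA2_8_19 : chkW (relA 2 8) 19 = true := by decide +kernel

theorem hA2_8_20 : chkW (relA 2 8) 20 = true := by decide +kernel

theorem hA2_8 : ∀ j, j < 21 → chkW (relA 2 8) j = true := by
  intro j hj
  interval_cases j
  exacts [hA2_8_0, hA2_8_1, hA2_8_2, hA2_8_3, hA2_8_4, hA2_8_5, hA2_8_6, hA2_8_7, hA2_8_8, hA2_8_9, hA2_8_10, hA2_8_11, hA2_8_12, hA2_8_13, hA2_8_14, hA2_8_15, hA2_8_16, hA2_8_17, hA2_8_18, hA2_8_19, hA2_8_20]

end Cfsg.Agent.TcData.HN.I1539000
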