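import Mathlib
import Cfsg.Agent.TcData.HN.A12.Defs

set_option autoImplicit false
set_option Elab.async false
set_option maxRecDepth 100000
set_option linter.all false

namespace Cfsg.Agent.TcData.HN.I1539000

open Cfsg.Spor Cfsg.Agent.Lib.TcFacts Cfsg.Agent.Lib.TcBits Cfsg.Agent.Lib.TcPres Cfsg.Spor.HN Cfsg.Agent.TcData.HN

theorem hA3_5_0 : chkW (relA 3 5) 0 = true := by decide +kernel

theorem hA3_5_1 : chkW (relA 3 5) 1 = true := by decide +kernel

theorem hA3_5_2 : chkW (relA 3 5) 2 = true := by decide +kernel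

theorem hA3_5_3 : chkW (relA 3 5) 3 = true := by decide +kernel

theorem hA3_5_4 : chkW (relA 3 5) 4 = true := by decide +kernel

theorem hA3_5_5 : chkW (relA 3 5) 5 = true := by decide +kernel

theorem hA3_5_6 : chkW (relA 3 5) 6 = true := by decide +kernel

theorem hA3_5_7 : chkW (relA 3 5) 7 = true := by decide +kernel

theorem hA3_5_8 : chkW (relA 3 5) 8 = true := by decide +kernel

theorem hA3_5_9 : chkW (relA 3 5) 9 = true := by decide +kernel

theorem hA3_5_10 : chkW (relA 3 5) 10 = true := by decide +kernel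

theorem hA3_5_11 : chkW (relA 3 5) 11 = true := by decide +kernel

theorem hA3_5_12 : chkW (relA 3 5) 12 = true := by decide +kernel

theorem hA3_5_13 : chkW (relA 3 5) 13 = true := by decide +kernel

theorem hA3_5_14 : chkW (relA 3 5) 14 = true := by decide +kernel

theorem hA3_5_15 : chkW (relA 3 5) 15 = true := by decide +kernel

theorem hA3_5_16 : chkW (relA 3 5) 16 = true := by decide +kernel

theorem hA3_5_17 : chkW (relA 3 5) 17 = true := by decide +kernel

theorem hA3_5_18 : chkW (relA 3 5) 18 = true := by decide +kernel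

theorem hA3_5_19 : chkW (relA 3 5) 19 = true := by decide +kernel

theorem hA3_5_20 : chkW (relA 3 5) 20 = true := by decide +kernel

theorem hA3_5 : ∀ j, j < 21 → chkW (relA 3 5) j = true := by
  intro j hj
  interval_cases j
  exacts [hA3_5_0, hA3_5_1, hA3_5_2, hA3_5_3, hA3_5_4, hA3_5_5, hA3_5_6, hA3_5_7, hA3_5_8, hA3_5_9, hA3_5_10, hA3_5_11, hA3_5_12, hA3_5_13, hA3_5_14, hA3_5_15, hA3_5_16, hA3_5_17, hA3_5_18, hA3_5_19, hA3_5_20]

end Cfsg.Agent.TcData.HN.I1539000
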