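import Mathlib
import Cfsg.Agent.TcData.HN.A12.Defs

set_option autoImplicit false
set_option Elab.async false
set_option maxRecDepth 100000
set_option linter.all false

namespace Cfsg.Agent.TcData.HN.I1539000

open Cfsg.Spor Cfsg.Agent.Lib.TcFacts Cfsg.Agent.Lib.TcBits Cfsg.Agent.Lib.TcPres Cfsg.Spor.HN Cfsg.Agent.TcData.HN

theorem hA3_6_0 : chkW (relA 3 6) 0 = true := by decide +kernel

theorem hA3_6_1 : chkW (relA 3 6) 1 = true := by decide +kernel

theorem hA3_6_2 : chkW (relA 3 6) 2 = true := by decide +kernel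

theorem hA3_6_3 : chkW (relA 3 6) 3 = true := by decide +kernel

theorem hA3_6_4 : chkW (relA 3 6) 4 = true := by decide +kernel

theorem hA3_6_5 : chkW (relA 3 6) 5 = true := by decide +kernel

theorem hA3_6_6 : chkW (relA 3 6) 6 = true := by decide +kernel

theorem hA3_6_7 : chkW (relA 3 6) 7 = true := by decide +kernel

theorem hA3_6_8 : chkW (relA 3 6) 8 = true := by decide +kernel

theorem hA3_6_9 : chkW (relA 3 6) 9 = true := by decide +kernel

theorem hA3_6_10 : chkW (relA 3 6) 10 = true := by decide +kernel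

theorem hA3_6_11 : chkW (relA 3 6) 11 = true := by decide +kernel

theorem hA3_6_12 : chkW (relA 3 6) 12 = true := by decide +kernel

theorem hA3_6_13 : chkW (relA 3 6) 13 = true := by decide +kernel

theorem hA3_6_14 : chkW (relA 3 6) 14 = true := by decide +kernel

theorem hA3_6_15 : chkW (relA 3 6) 15 = true := by decide +kernel

theorem hA3_6_16 : chkW (relA 3 6) 16 = true := by decide +kernel

theorem hA3_6_17 : chkW (relA 3 6) 17 = true := by decide +kernel

theorem hA3_6_18 : chkW (relA 3 6) 18 = true := by decide +kernel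

theorem hA3_6_19 : chkW (relA 3 6) 19 = true := by decide +kernel

theorem hA3_6_20 : chkW (relA 3 6) 20 = true := by decide +kernel

theorem hA3_6 : ∀ j, j < 21 → chkW (relA 3 6) j = true := by
  intro j hj
  interval_cases j
  exacts [hA3_6_0, hA3_6_1, hA3_6_2, hA3_6_3, hA3_6_4, hA3_6_5, hA3_6_6, hA3_6_7, hA3_6_8, hA3_6_9, hA3_6_10, hA3_6_11, hA3_6_12, hA3_6_13, hA3_6_14, hA3_6_15, hA3_6_16, hA3_6_17, hA3_6_18, hA3_6_19, hA3_6_20]

end Cfsg.Agent.TcData.HN.I1539000
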