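import Mathlib
import Cfsg.Agent.TcData.HN.A12.Defs

set_option autoImplicit false
set_option Elab.async false
set_option maxRecDepth 100000
set_option linter.all false

namespace Cfsg.Agent.TcData.HN.I1539000

open Cfsg.Spor Cfsg.Agent.Lib.TcFacts Cfsg.Agent.Lib.TcBits Cfsg.Agent.Lib.TcPres Cfsg.Spor.HN Cfsg.Agent.TcData.HN

theorem hA5_9_0 : chkW (relA 5 9) 0 = true := by decide +kernel

theorem hA5_9_1 : chkW (relA 5 9) 1 = true := by decide +kernel

theorem hA5_9_2 : chkW (relA 5 9) 2 = true := by decide +kernel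

theorem hA5_9_3 : chkW (relA 5 9) 3 = true := by decide +kernel

theorem hA5_9_4 : chkW (relA 5 9) 4 = true := by decide +kernel

theorem hA5_9_5 : chkW (relA 5 9) 5 = true := by decide +kernel

theorem hA5_9_6 : chkW (relA 5 9) 6 = true := by decide +kernel

theorem hA5_9_7 : chkW (relA 5 9) 7 = true := by decide +kernel

theorem hA5_9_8 : chkW (relA 5 9) 8 = true := by decide +kernel

theorem hA5_9_9 : chkW (relA 5 9) 9 = true := by decide +kernel

theorem hA5_9_10 : chkW (relA 5 9) 10 = true := by decide +kernel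

theorem hA5_9_11 : chkW (relA 5 9) 11 = true := by decide +kernel

theorem hA5_9_12 : chkW (relA 5 9) 12 = true := by decide +kernel

theorem hA5_9_13 : chkW (relA 5 9) 13 = true := by decide +kernel

theorem hA5_9_14 : chkW (relA 5 9) 14 = true := by decide +kernel

theorem hA5_9_15 : chkW (relA 5 9) 15 = true := by decide +kernel

theorem hA5_9_16 : chkW (relA 5 9) 16 = true := by decide +kernel

theorem hA5_9_17 : chkW (relA 5 9) 17 = true := by decide +kernel

theorem hA5_9_18 : chkW (relA 5 9) 18 = true := by decide +kernel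

theorem hA5_9_19 : chkW (relA 5 9) 19 = true := by decide +kernel

theorem hA5_9_20 : chkW (relA 5 9) 20 = true := by decide +kernel

theorem hA5_9 : ∀ j, j < 21 → chkW (relA 5 9) j = true := by
  intro j hj
  interval_cases j
  exacts [hA5_9_0, hA5_9_1, hA5_9_2, hA5_9_3, hA5_9_4, hA5_9_5, hA5_9_6, hA5_9_7, hA5_9_8, hA5_9_9, hA5_9_10, hA5_9_11, hA5_9_12, hA5_9_13, hA5_9_14, hA5_9_15, hA5_9_16, hA5_9_17, hA5_9_18, hA5_9_19, hA5_9_20]

end Cfsg.Agent.TcData.HN.I1539000
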