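import Mathlib
import Cfsg.Agent.TcData.HN.A12.Defs

set_option autoImplicit false
set_option Elab.async false
set_option maxRecDepth 100000
set_option linter.all false

namespace Cfsg.Agent.TcData.HN.I1539000

open Cfsg.Spor Cfsg.Agent.Lib.TcFacts Cfsg.Agent.Lib.TcBits Cfsg.Agent.Lib.TcPres Cfsg.Spor.HN Cfsg.Agent.TcData.HN

theorem hC0_0 : chkW (relC 0) 0 = true := by decide +kernel

theorem hC0_1 : chkW (relC 0) 1 = true := by decide +kernel

theorem hC0_2 : chkW (relC 0) 2 = true := by decide +kernel

theorem hC0_3 : chkW (relC 0) 3 = true := by decide +kernel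

theorem hC0_4 : chkW (relC 0) 4 = true := by decide +kernel

theorem hC0_5 : chkW (relC 0) 5 = true := by decide +kernel

theorem hC0_6 : chkW (relC 0) 6 = true := by decide +kernel

theorem hC0_7 : chkW (relC 0) 7 = true := by decide +kernel

theorem hC0_8 : chkW (relC 0) 8 = true := by decide +kernel

theorem hC0_9 : chkW (relC 0) 9 = true := by decide +kernel

theorem hC0_10 : chkW (relC 0) 10 = true := by decide +kernel

theorem hC0_11 : chkW (relC 0) 11 = true := by decide +kernel

theorem hC0_12 : chkW (relC 0) 12 = true := by decide +kernel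

theorem hC0_13 : chkW (relC 0) 13 = true := by decide +kernel

theorem hC0_14 : chkW (relC 0) 14 = true := by decide +kernel

theorem hC0_15 : chkW (relC 0) 15 = true := by decide +kernel

theorem hC0_16 : chkW (relC 0) 16 = true := by decide +kernel

theorem hC0_17 : chkW (relC 0) 17 = true := by decide +kernel

theorem hC0_18 : chkW (relC 0) 18 = true := by decide +kernel

theorem hC0_19 : chkW (relC 0) 19 = true := by decide +kernel

theorem hC0_20 : chkW (relC 0) 20 = true := by decide +kernel

theorem hC0 : ∀ j, j < 21 → chkW (relC 0) j = true := by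
  intro j hj
  interval_cases j
  exacts [hC0_0, hC0_1, hC0_2, hC0_3, hC0_4, hC0_5, hC0_6, hC0_7, hC0_8, hC0_9, hC0_10, hC0_11, hC0_12, hC0_13, hC0_14, hC0_15, hC0_16, hC0_17, hC0_18, hC0_19, hC0_20]

end Cfsg.Agent.TcData.HN.I1539000
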