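import Mathlib
import Cfsg.Agent.TcData.HN.A12.Defs

set_option autoImplicit false
set_option Elab.async false
set_option maxRecDepth 100000
set_option linter.all false

namespace Cfsg.Agent.TcData.HN.I1539000

open Cfsg.Spor Cfsg.Agent.Lib.TcFacts Cfsg.Agent.Lib.TcBits Cfsg.Agent.Lib.TcPres Cfsg.Spor.HN Cfsg.Agent.TcData.HN

theorem hC1_0 : chkW (relC 1) 0 = true := by decide +kernel

theorem hC1_1 : chkW (relC 1) 1 = true := by decide +kernel

theorem hC1_2 : chkW (relC 1) 2 = true := by decide +kernel

theorem hC1_3 : chkW (relC 1) 3 = true := by decide +kernel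

theorem hC1_4 : chkW (relC 1) 4 = true := by decide +kernel

theorem hC1_5 : chkW (relC 1) 5 = true := by decide +kernel

theorem hC1_6 : chkW (relC 1) 6 = true := by decide +kernel

theorem hC1_7 : chkW (relC 1) 7 = true := by decide +kernel

theorem hC1_8 : chkW (relC 1) 8 = true := by decide +kernel

theorem hC1_9 : chkW (relC 1) 9 = true := by decide +kernel

theorem hC1_10 : chkW (relC 1) 10 = true := by decide +kernel

theorem hC1_11 : chkW (relC 1) 11 = true := by decide +kernel

theorem hC1_12 : chkW (relC 1) 12 = true := by decide +kernel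

theorem hC1_13 : chkW (relC 1) 13 = true := by decide +kernel

theorem hC1_14 : chkW (relC 1) 14 = true := by decide +kernel

theorem hC1_15 : chkW (relC 1) 15 = true := by decide +kernel

theorem hC1_16 : chkW (relC 1) 16 = true := by decide +kernel

theorem hC1_17 : chkW (relC 1) 17 = true := by decide +kernel

theorem hC1_18 : chkW (relC 1) 18 = true := by decide +kernel

theorem hC1_19 : chkW (relC 1) 19 = true := by decide +kernel

theorem hC1_20 : chkW (relC 1) 20 = true := by decide +kernel

theorem hC1 : ∀ j, j < 21 → chkW (relC 1) j = true := by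
  intro j hj
  interval_cases j
  exacts [hC1_0, hC1_1, hC1_2, hC1_3, hC1_4, hC1_5, hC1_6, hC1_7, hC1_8, hC1_9, hC1_10, hC1_11, hC1_12, hC1_13, hC1_14, hC1_15, hC1_16, hC1_17, hC1_18, hC1_19, hC1_20]

end Cfsg.Agent.TcData.HN.I1539000
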