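import Mathlib
import Cfsg.Agent.TcData.HN.A12.Defs

set_option autoImplicit false
set_option Elab.async false
set_option maxRecDepth 100000
set_option linter.all false

namespace Cfsg.Agent.TcData.HN.I1539000

open Cfsg.Spor Cfsg.Agent.Lib.TcFacts Cfsg.Agent.Lib.TcBits Cfsg.Agent.Lib.TcPres Cfsg.Spor.HN Cfsg.Agent.TcData.HN

theorem hC3_0 : chkW (relC 3) 0 = true := by decide +kernel

theorem hC3_1 : chkW (relC 3) 1 = true := by decide +kernel

theorem hC3_2 : chkW (relC 3) 2 = true := by decide +kernel

theorem hC3_3 : chkW (relC 3) 3 = true := by decide +kernel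

theorem hC3_4 : chkW (relC 3) 4 = true := by decide +kernel

theorem hC3_5 : chkW (relC 3) 5 = true := by decide +kernel

theorem hC3_6 : chkW (relC 3) 6 = true := by decide +kernel

theorem hC3_7 : chkW (relC 3) 7 = true := by decide +kernel

theorem hC3_8 : chkW (relC 3) 8 = true := by decide +kernel

theorem hC3_9 : chkW (relC 3) 9 = true := by decide +kernel

theorem hC3_10 : chkW (relC 3) 10 = true := by decide +kernel

theorem hC3_11 : chkW (relC 3) 11 = true := by decide +kernel

theorem hC3_12 : chkW (relC 3) 12 = true := by decide +kernel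

theorem hC3_13 : chkW (relC 3) 13 = true := by decide +kernel

theorem hC3_14 : chkW (relC 3) 14 = true := by decide +kernel

theorem hC3_15 : chkW (relC 3) 15 = true := by decide +kernel

theorem hC3_16 : chkW (relC 3) 16 = true := by decide +kernel

theorem hC3_17 : chkW (relC 3) 17 = true := by decide +kernel

theorem hC3_18 : chkW (relC 3) 18 = true := by decide +kernel

theorem hC3_19 : chkW (relC 3) 19 = true := by decide +kernel

theorem hC3_20 : chkW (relC 3) 20 = true := by decide +kernel

theorem hC3 : ∀ j, j < 21 → chkW (relC 3) j = true := by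
  intro j hj
  interval_cases j
  exacts [hC3_0, hC3_1, hC3_2, hC3_3, hC3_4, hC3_5, hC3_6, hC3_7, hC3_8, hC3_9, hC3_10, hC3_11, hC3_12, hC3_13, hC3_14, hC3_15, hC3_16, hC3_17, hC3_18, hC3_19, hC3_20]

end Cfsg.Agent.TcData.HN.I1539000
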