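import Mathlib
import Cfsg.Agent.TcData.HN.A12.Defs

set_option autoImplicit false
set_option Elab.async false
set_option maxRecDepth 100000
set_option linter.all false

namespace Cfsg.Agent.TcData.HN.I1539000

open Cfsg.Spor Cfsg.Agent.Lib.TcFacts Cfsg.Agent.Lib.TcBits Cfsg.Agent.Lib.TcPres Cfsg.Spor.HN Cfsg.Agent.TcData.HN

theorem hC4_0 : chkW (relC 4) 0 = true := by decide +kernel

theorem hC4_1 : chkW (relC 4) 1 = true := by decide +kernel

theorem hC4_2 : chkW (relC 4) 2 = true := by decide +kernel

theorem hC4_3 : chkW (relC 4) 3 = true := by decide +kernel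

theorem hC4_4 : chkW (relC 4) 4 = true := by decide +kernel

theorem hC4_5 : chkW (relC 4) 5 = true := by decide +kernel

theorem hC4_6 : chkW (relC 4) 6 = true := by decide +kernel

theorem hC4_7 : chkW (relC 4) 7 = true := by decide +kernel

theorem hC4_8 : chkW (relC 4) 8 = true := by decide +kernel

theorem hC4_9 : chkW (relC 4) 9 = true := by decide +kernel

theorem hC4_10 : chkW (relC 4) 10 = true := by decide +kernel

theorem hC4_11 : chkW (relC 4) 11 = true := by decide +kernel

theorem hC4_12 : chkW (relC 4) 12 = true := by decide +kernel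

theorem hC4_13 : chkW (relC 4) 13 = true := by decide +kernel

theorem hC4_14 : chkW (relC 4) 14 = true := by decide +kernel

theorem hC4_15 : chkW (relC 4) 15 = true := by decide +kernel

theorem hC4_16 : chkW (relC 4) 16 = true := by decide +kernel

theorem hC4_17 : chkW (relC 4) 17 = true := by decide +kernel

theorem hC4_18 : chkW (relC 4) 18 = true := by decide +kernel

theorem hC4_19 : chkW (relC 4) 19 = true := by decide +kernel

theorem hC4_20 : chkW (relC 4) 20 = true := by decide +kernel

theorem hC4 : ∀ j, j < 21 → chkW (relC 4) j = true := by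
  intro j hj
  interval_cases j
  exacts [hC4_0, hC4_1, hC4_2, hC4_3, hC4_4, hC4_5, hC4_6, hC4_7, hC4_8, hC4_9, hC4_10, hC4_11, hC4_12, hC4_13, hC4_14, hC4_15, hC4_16, hC4_17, hC4_18, hC4_19, hC4_20]

end Cfsg.Agent.TcData.HN.I1539000
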