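import Mathlib
import Cfsg.Agent.TcData.HN.A12.Defs

set_option autoImplicit false
set_option Elab.async false
set_option maxRecDepth 100000
set_option linter.all false

namespace Cfsg.Agent.TcData.HN.I1539000

open Cfsg.Spor Cfsg.Agent.Lib.TcFacts Cfsg.Agent.Lib.TcBits Cfsg.Agent.Lib.TcPres Cfsg.Spor.HN Cfsg.Agent.TcData.HN

theorem hC5_0 : chkW (relC 5) 0 = true := by decide +kernel

theorem hC5_1 : chkW (relC 5) 1 = true := by decide +kernel

theorem hC5_2 : chkW (relC 5) 2 = true := by decide +kernel

theorem hC5_3 : chkW (relC 5) 3 = true := by decide +kernel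

theorem hC5_4 : chkW (relC 5) 4 = true := by decide +kernel

theorem hC5_5 : chkW (relC 5) 5 = true := by decide +kernel

theorem hC5_6 : chkW (relC 5) 6 = true := by decide +kernel

theorem hC5_7 : chkW (relC 5) 7 = true := by decide +kernel

theorem hC5_8 : chkW (relC 5) 8 = true := by decide +kernel

theorem hC5_9 : chkW (relC 5) 9 = true := by decide +kernel

theorem hC5_10 : chkW (relC 5) 10 = true := by decide +kernel

theorem hC5_11 : chkW (relC 5) 11 = true := by decide +kernel

theorem hC5_12 : chkW (relC 5) 12 = true := by decide +kernel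

theorem hC5_13 : chkW (relC 5) 13 = true := by decide +kernel

theorem hC5_14 : chkW (relC 5) 14 = true := by decide +kernel

theorem hC5_15 : chkW (relC 5) 15 = true := by decide +kernel

theorem hC5_16 : chkW (relC 5) 16 = true := by decide +kernel

theorem hC5_17 : chkW (relC 5) 17 = true := by decide +kernel

theorem hC5_18 : chkW (relC 5) 18 = true := by decide +kernel

theorem hC5_19 : chkW (relC 5) 19 = true := by decide +kernel

theorem hC5_20 : chkW (relC 5) 20 = true := by decide +kernel

theorem hC5 : ∀ j, j < 21 → chkW (relC 5) j = true := by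
  intro j hj
  interval_cases j
  exacts [hC5_0, hC5_1, hC5_2, hC5_3, hC5_4, hC5_5, hC5_6, hC5_7, hC5_8, hC5_9, hC5_10, hC5_11, hC5_12, hC5_13, hC5_14, hC5_15, hC5_16, hC5_17, hC5_18, hC5_19, hC5_20]

end Cfsg.Agent.TcData.HN.I1539000
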