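import Mathlib
import Cfsg.Agent.TcData.HN.A12.Defs

set_option autoImplicit false
set_option Elab.async false
set_option maxRecDepth 100000
set_option linter.all false

namespace Cfsg.Agent.TcData.HN.I1539000

open Cfsg.Spor Cfsg.Agent.Lib.TcFacts Cfsg.Agent.Lib.TcBits Cfsg.Agent.Lib.TcPres Cfsg.Spor.HN Cfsg.Agent.TcData.HN

theorem hC8_0 : chkW (relC 8) 0 = true := by decide +kernel

theorem hC8_1 : chkW (relC 8) 1 = true := by decide +kernel

theorem hC8_2 : chkW (relC 8) 2 = true := by decide +kernel

theorem hC8_3 : chkW (relC 8) 3 = true := by decide +kernel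

theorem hC8_4 : chkW (relC 8) 4 = true := by decide +kernel

theorem hC8_5 : chkW (relC 8) 5 = true := by decide +kernel

theorem hC8_6 : chkW (relC 8) 6 = true := by decide +kernel

theorem hC8_7 : chkW (relC 8) 7 = true := by decide +kernel

theorem hC8_8 : chkW (relC 8) 8 = true := by decide +kernel

theorem hC8_9 : chkW (relC 8) 9 = true := by decide +kernel

theorem hC8_10 : chkW (relC 8) 10 = true := by decide +kernel

theorem hC8_11 : chkW (relC 8) 11 = true := by decide +kernel

theorem hC8_12 : chkW (relC 8) 12 = true := by decide +kernel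

theorem hC8_13 : chkW (relC 8) 13 = true := by decide +kernel

theorem hC8_14 : chkW (relC 8) 14 = true := by decide +kernel

theorem hC8_15 : chkW (relC 8) 15 = true := by decide +kernel

theorem hC8_16 : chkW (relC 8) 16 = true := by decide +kernel

theorem hC8_17 : chkW (relC 8) 17 = true := by decide +kernel

theorem hC8_18 : chkW (relC 8) 18 = true := by decide +kernel

theorem hC8_19 : chkW (relC 8) 19 = true := by decide +kernel

theorem hC8_20 : chkW (relC 8) 20 = true := by decide +kernel

theorem hC8 : ∀ j, j < 21 → chkW (relC 8) j = true := by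
  intro j hj
  interval_cases j
  exacts [hC8_0, hC8_1, hC8_2, hC8_3, hC8_4, hC8_5, hC8_6, hC8_7, hC8_8, hC8_9, hC8_10, hC8_11, hC8_12, hC8_13, hC8_14, hC8_15, hC8_16, hC8_17, hC8_18, hC8_19, hC8_20]

end Cfsg.Agent.TcData.HN.I1539000
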